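import Cfsg.Agent.TwoFpf.Tables

/-!
A group of order `64` of unitary type has no automorphism which is an involution modulo the
four-group of squares and interchanges two of the three involutions.

If `F` is the preimage of the fixed points of such an automorphism modulo `W`, then every square
from `F` lies in `⟨z⟩`, so `F` is totally singular for one of the quadratic forms given by the
squaring map; each of these forms has Witt index one, as its fibres have twenty elements each.
-/

set_option autoImplicit false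
set_option maxHeartbeats 800000

open scoped commutatorElement

namespace CfsgLib.TwoRankTwo23

open CfsgLib.TwoFpf (comm_mul_left comm_mul_right)

theorem no_swap {T : Type*} [Group T] [Finite T] {W : Subgroup T} {ω : MulAut T}
    (h : CfsgLib.TwoFpf.IsSq64 ω W) (hinv : ∀ x : T, x * x = 1 → x ∈ W)
    (Y : MulAut T) (hY2 : ∀ a, a⁻¹ * Y (Y a) ∈ W)
    {z w₀ : T} (hz : z ∈ W) (hz1 : z ≠ 1) (hYz : Y z = z) (hw₀ : w₀ ∈ W) (hYw : Y w₀ ≠ w₀) :
    False := by
  classical
  haveI : Fintype T := Fintype.ofFinite T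
  have hc := h.center
  have hW2 := h.four.elem
  have hcomm : ∀ {w : T}, w ∈ W → ∀ g, Commute w g := fun hw g => h.four.comm hw g
  have hneg : ∀ a b : T, ⁅a⁻¹, b⁆ = ⁅a, b⁆ := by
    intro a b
    have h1 := comm_mul_left hc a⁻¹ a b
    rw [inv_mul_cancel, commutatorElement_one_left] at h1
    rw [eq_inv_of_mul_eq_one_left h1.symm]
    exact inv_eq_of_mul_eq_one_right (hW2 _ (h.comm_mem a b))
  have sqmul : ∀ a b : T, a * b * (a * b) = a * a * (b * b) * ⁅a, b⁆ := by
    intro a b
    rw [← hneg a b]
    have e : a * b * (a * b) = a * a * (⁅a⁻¹, b⁆ * (b * b)) := by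
      simp [commutatorElement_def, mul_assoc]
    rw [e, (hcomm (h.comm_mem a⁻¹ b) (b * b)).eq]
    simp only [mul_assoc]
  -- squaring is invariant modulo `W`
  have sqW : ∀ a : T, ∀ w ∈ W, a * w * (a * w) = a * a := by
    intro a w hw
    rw [sqmul, hW2 w hw, mul_one, commutatorElement_eq_one_iff_mul_comm.2 (hcomm hw a).symm.eq,
      mul_one]
  have hYW : ∀ w ∈ W, Y w ∈ W := fun w hw => hinv _ (by rw [← map_mul, hW2 w hw, map_one])
  -- the fixed elements of `Y` in `W`
  let Z : Subgroup T :=
    { carrier := {a | a = 1 ∨ a = z}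
      one_mem' := Or.inl rfl
      inv_mem' := by
        rintro a (rfl | rfl)
        · exact Or.inl inv_one
        · exact Or.inr (h.four.inv_eq hz)
      mul_mem' := by
        rintro a b (rfl | rfl) (rfl | rfl)
        · exact Or.inl (one_mul _)
        · exact Or.inr (one_mul _)
        · exact Or.inr (mul_one _)
        · exact Or.inl (hW2 _ hz) }
  have hcases := fun (w : T) (hw : w ∈ W) => h.four.cases h.fpf hz hz1 hw
  have hθθ : ω (ω z) = z * ω z := h.four.theta_two h.fpf hz
  have hfixZ : ∀ w ∈ W, Y w = w → w ∈ Z := by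
    intro w hw hfw
    by_contra hwZ
    have hw1 : w ≠ 1 := fun e => hwZ (Or.inl e)
    have hwz : w ≠ z := fun e => hwZ (Or.inr e)
    have hω : Y (ω z) = ω z := by
      rcases hcases w hw with rfl | rfl | rfl | rfl
      · exact absurd rfl hw1
      · exact absurd rfl hwz
      · exact hfw
      · rw [hθθ, map_mul, hYz] at hfw
        exact mul_left_cancel hfw
    rcases hcases w₀ hw₀ with rfl | rfl | rfl | rfl
    · exact hYw (map_one _)
    · exact hYw hYz
    · exact hYw hω
    · exact hYw (by rw [hθθ, map_mul, hYz, hω])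
  have hprodZ : ∀ c ∈ W, ∀ d ∈ W, c ∉ Z → d ∉ Z → c * d ∈ Z := by
    intro c hc' d hd' hcZ hdZ
    rcases hcases c hc' with rfl | rfl | rfl | rfl
    · exact absurd (Or.inl rfl) hcZ
    · exact absurd (Or.inr rfl) hcZ
    all_goals
      rcases hcases d hd' with rfl | rfl | rfl | rfl
      · exact absurd (Or.inl rfl) hdZ
      · exact absurd (Or.inr rfl) hdZ
      all_goals
        rw [hθθ] at *
        first
        | exact Or.inl (hW2 _ hc')
        | exact Or.inr (by rw [mul_assoc, hW2 _ (h.four.inv z hz), mul_one])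
        | exact Or.inr (by
            rw [← mul_assoc, ← (hcomm hz (ω z)).eq, mul_assoc, hW2 _ (h.four.inv z hz), mul_one])
  -- the preimage of the fixed points
  haveI hWn : W.Normal := ⟨fun w hw g => by
    rw [← (hcomm hw g).eq, mul_inv_cancel_right]; exact hw⟩
  have hVsq : ∀ v : T ⧸ W, v * v = 1 := by
    intro v
    obtain ⟨a, rfl⟩ := QuotientGroup.mk_surjective v
    exact (QuotientGroup.eq_one_iff _).2 (h.sq a)
  have hVinv : ∀ v : T ⧸ W, v⁻¹ = v := fun v => inv_eq_of_mul_eq_one_right (hVsq v)
  have hVc : ∀ v u : T ⧸ W, v * u = u * v := fun v u => by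
    rw [← hVinv (v * u), mul_inv_rev, hVinv, hVinv]
  let D : T →* T ⧸ W :=
    { toFun := fun a => (QuotientGroup.mk a : T ⧸ W) * QuotientGroup.mk (Y a)
      map_one' := by simp
      map_mul' := fun a b => by
        rw [map_mul, QuotientGroup.mk_mul, QuotientGroup.mk_mul]
        calc _ = (a : T ⧸ W) * ((b : T ⧸ W) * (Y a : T ⧸ W)) * (Y b : T ⧸ W) := by group
          _ = _ := by rw [hVc (b : T ⧸ W) (Y a : T ⧸ W)]; group }
  have hDmem : ∀ a, a ∈ D.ker ↔ a⁻¹ * Y a ∈ W := by
    intro a
    rw [MonoidHom.mem_ker, ← QuotientGroup.eq_one_iff, QuotientGroup.mk_mul, QuotientGroup.mk_inv,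
      hVinv]
    rfl
  set F := D.ker with hF
  have hWF : W ≤ F := fun w hw => (hDmem w).2 (mul_mem (inv_mem hw) (hYW w hw))
  set R := D.range.comap (QuotientGroup.mk' W) with hR
  have hRF : R ≤ F := by
    rintro b ⟨a, ha⟩
    rw [MonoidHom.mem_ker]
    show (b : T ⧸ W) * (Y b : T ⧸ W) = 1
    change (a : T ⧸ W) * (Y a : T ⧸ W) = (b : T ⧸ W) at ha
    have hb : ((a * Y a)⁻¹ * b) ∈ W := by
      rw [← QuotientGroup.eq_one_iff, QuotientGroup.mk_mul, QuotientGroup.mk_inv,
        QuotientGroup.mk_mul, ha, inv_mul_cancel]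
    have hYb : (Y b : T ⧸ W) = ((Y (a * Y a) : T) : T ⧸ W) := by
      symm
      rw [QuotientGroup.eq, ← map_inv, ← map_mul]
      exact hYW _ hb
    have hYY : ((Y (Y a) : T) : T ⧸ W) = (a : T ⧸ W) := (QuotientGroup.eq.2 (hY2 a)).symm
    rw [hYb, map_mul, QuotientGroup.mk_mul, hYY, ← ha, hVc (Y a : T ⧸ W) (a : T ⧸ W), hVsq]
  have hF16 : 16 ≤ Nat.card F := by
    have e1 : Nat.card F * F.index = 64 := by rw [Subgroup.card_mul_index, h.card]
    have e2 : F.index = Nat.card D.range := Subgroup.index_ker D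
    have e3 : R.index = D.range.index :=
      Subgroup.index_comap_of_surjective _ (QuotientGroup.mk'_surjective W)
    have e4 : Nat.card R * R.index = 64 := by rw [Subgroup.card_mul_index, h.card]
    have e5 : Nat.card D.range * D.range.index = 16 := by
      rw [Subgroup.card_mul_index]
      have := Subgroup.card_eq_card_quotient_mul_card_subgroup W
      rw [h.card, h.four.card] at this
      omega
    have e6 : Nat.card R ≤ Nat.card F := Nat.le_of_dvd Nat.card_pos (Subgroup.card_dvd_of_le hRF)
    rw [e2] at e1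
    rw [e3] at e4
    have hi : 0 < D.range.index := Nat.pos_of_ne_zero Subgroup.index_ne_zero_of_finite
    have h4 : Nat.card R = 4 * Nat.card D.range := by
      apply Nat.eq_of_mul_eq_mul_right hi
      rw [e4, mul_assoc, e5]
      try norm_num
    nlinarith
  have hFZ : ∀ a ∈ F, a * a ∈ Z := by
    intro a ha
    refine hfixZ _ (h.sq a) ?_
    rw [map_mul]
    have := sqW a _ ((hDmem a).1 ha)
    rwa [mul_inv_cancel_left] at this
  -- the squaring fibres
  set S2 := Finset.univ.filter (fun a : T => a * a ∈ Z) with hS2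
  have hS2card : S2.card = 24 := by
    set fib := fun w : T => Finset.univ.filter (fun a : T => a * a = w) with hfib
    have hω : ∀ w, (fib (ω w)).card = (fib w).card := by
      intro w
      refine (Finset.card_bij (fun a _ => ω a) (fun a ha => ?_) (fun a _ b _ e => ω.injective e)
        (fun b hb => ⟨ω.symm b, ?_, by simp⟩)).symm
      · simp only [hfib, Finset.mem_filter, Finset.mem_univ, true_and] at ha ⊢
        rw [← map_mul, ha]
      · simp only [hfib, Finset.mem_filter, Finset.mem_univ, true_and] at hb ⊢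
        apply ω.injective
        rw [map_mul, MulEquiv.apply_symm_apply, hb]
    have hone : (fib 1).card = 4 := by
      rw [← h.four.card, ← Nat.card_eq_finsetCard]
      refine Nat.card_congr (Equiv.subtypeEquivRight fun a => ?_)
      simp only [hfib, Finset.mem_filter, Finset.mem_univ, true_and]
      exact ⟨hinv a, hW2 a⟩
    have d1 : z ≠ ω z := fun e => hz1 (h.fpf.fpf z e.symm)
    have d2 : ω z ≠ 1 := fun e => hz1 (ω.map_eq_one_iff.1 e)
    have d3 : ω (ω z) ≠ 1 := fun e => d2 (ω.map_eq_one_iff.1 e)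
    have d4 : ω z ≠ ω (ω z) := fun e => d1 (ω.injective e)
    have d5 : z ≠ ω (ω z) := fun e => d2 (by
      rw [hθθ] at e
      exact mul_left_cancel (e.symm.trans (mul_one z).symm))
    have hsum : (Finset.univ : Finset T).card = ∑ w ∈ ({1, z, ω z, ω (ω z)} : Finset T), (fib w).card := by
      refine Finset.card_eq_sum_card_fiberwise fun a _ => ?_
      simpa using hcases _ (h.sq a)
    rw [Finset.sum_insert (by simp [Ne.symm hz1, Ne.symm d2, Ne.symm d3]),
      Finset.sum_insert (by simp [d1, d5]), Finset.sum_pair d4, hω (ω z), hω z, hone, Finset.card_univ,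
      ← Nat.card_eq_fintype_card, h.card] at hsum
    have hsplit : S2 = fib 1 ∪ fib z := by
      ext a
      simp only [hS2, hfib, Finset.mem_union, Finset.mem_filter, Finset.mem_univ, true_and]
      rfl
    rw [hsplit, Finset.card_union_of_disjoint (Finset.disjoint_filter.2 fun a _ e1 e2 =>
      hz1 (e2.symm.trans e1)), hone]
    simp only [hfib] at hsum ⊢
    omega
  set Ff := Finset.univ.filter (fun a : T => a ∈ F) with hFf
  have hFfcard : Ff.card = Nat.card F := by
    rw [← Nat.card_eq_finsetCard]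
    exact Nat.card_congr (Equiv.subtypeEquivRight fun a => by simp [hFf])
  have hFfS2 : Ff ⊆ S2 := fun a ha => by
    simp only [hFf, hS2, Finset.mem_filter, Finset.mem_univ, true_and] at ha ⊢
    exact hFZ a ha
  have hF16' : Nat.card F = 16 := by
    have hle := Finset.card_le_card hFfS2
    rw [hFfcard, hS2card] at hle
    have hd : Nat.card F ∣ 2 ^ 6 := by
      have := Subgroup.card_subgroup_dvd_card F
      rwa [h.card] at this
    obtain ⟨k, hk, hk'⟩ := (Nat.dvd_prime_pow Nat.prime_two).1 hd
    rw [hk'] at hle hF16 ⊢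
    interval_cases k <;> norm_num at *
  -- an element outside `F` with square in `Z`
  obtain ⟨a₀, ha₀S, ha₀F⟩ : ∃ a, a ∈ S2 ∧ a ∉ Ff := Finset.exists_mem_notMem_of_card_lt_card
    (by rw [hFfcard, hF16', hS2card]; norm_num)
  simp only [hS2, hFf, Finset.mem_filter, Finset.mem_univ, true_and] at ha₀S ha₀F
  set A := Ff.filter (fun f => ⁅a₀, f⁆ ∈ Z) with hA
  set B := Ff.filter (fun f => ⁅a₀, f⁆ ∉ Z) with hB
  have hAB : B.card ≤ A.card := by
    rcases B.eq_empty_or_nonempty with e | ⟨f₁, hf₁⟩
    · rw [e]; exact Nat.zero_le _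
    refine Finset.card_le_card_of_injOn (fun f => f₁ * f) (fun f hf => ?_)
      (fun a _ b _ e => mul_left_cancel e)
    simp only [hA, hB, hFf, Finset.mem_filter, Finset.mem_univ, true_and, Finset.mem_coe] at hf hf₁ ⊢
    refine ⟨mul_mem hf₁.1 hf.1, ?_⟩
    rw [comm_mul_right hc]
    exact hprodZ _ (h.comm_mem _ _) _ (h.comm_mem _ _) hf₁.2 hf.2
  have hA8 : 8 ≤ A.card := by
    have : A.card + B.card = Ff.card := by
      simp only [hA, hB]
      convert Finset.card_filter_add_card_filter_not (s := Ff) (fun f => ⁅a₀, f⁆ ∈ Z) using 3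
    rw [hFfcard, hF16'] at this
    omega
  have hsub : Ff ∪ A.image (a₀ * ·) = S2 := by
    apply Finset.eq_of_subset_of_card_le
    · refine Finset.union_subset hFfS2 fun a ha => ?_
      simp only [hA, hS2, hFf, Finset.mem_image, Finset.mem_filter, Finset.mem_univ, true_and] at ha ⊢
      obtain ⟨f, hf, rfl⟩ := ha
      rw [sqmul]
      exact mul_mem (mul_mem ha₀S (hFZ f hf.1)) hf.2
    · rw [hS2card, Finset.card_union_of_disjoint, Finset.card_image_of_injective _
        (mul_right_injective a₀), hFfcard, hF16']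
      · omega
      · rw [Finset.disjoint_left]
        intro a ha ha'
        simp only [hA, hFf, Finset.mem_image, Finset.mem_filter, Finset.mem_univ, true_and] at ha ha'
        obtain ⟨f, hf, rfl⟩ := ha'
        exact ha₀F ((Subgroup.mul_mem_cancel_right F hf.1).1 ha)
  have hout : ∀ c : T, c ∉ F → a₀⁻¹ * c ∉ F → c * c ∉ Z := by
    intro c h1 h2 h3
    have : c ∈ Ff ∪ A.image (a₀ * ·) := by rw [hsub]; simp [hS2, h3]
    simp only [hA, hFf, Finset.mem_union, Finset.mem_image, Finset.mem_filter, Finset.mem_univ,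
      true_and] at this
    rcases this with h4 | ⟨f, hf, rfl⟩
    · exact h1 h4
    · rw [inv_mul_cancel_left] at h2
      exact h2 hf.1
  have hK : ∀ c : T, c ∉ F → a₀⁻¹ * c ∉ F → ∀ f ∈ F, ⁅c, f⁆ ∈ Z := by
    intro c h1 h2 f hf
    by_contra hcf
    refine hout (c * f) (fun e => h1 ((Subgroup.mul_mem_cancel_right F hf).1 e))
      (fun e => h2 ((Subgroup.mul_mem_cancel_right F hf).1 (by rwa [mul_assoc]))) ?_
    rw [sqmul, mul_assoc (c * c), (hcomm (h.comm_mem c f) (f * f)).symm.eq, ← mul_assoc]
    exact mul_mem (hprodZ _ (h.sq c) _ (h.comm_mem c f) (hout c h1 h2) hcf) (hFZ f hf)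
  obtain ⟨b, hb1, hb2⟩ : ∃ b, b ∉ F ∧ a₀⁻¹ * b ∉ F := by
    by_contra hcon
    push Not at hcon
    have : (Finset.univ : Finset T) ⊆ Ff ∪ Ff.image (a₀ * ·) := fun c _ => by
      simp only [hFf, Finset.mem_union, Finset.mem_image, Finset.mem_filter, Finset.mem_univ, true_and]
      by_cases e : c ∈ F
      · exact Or.inl e
      · exact Or.inr ⟨a₀⁻¹ * c, hcon c e, mul_inv_cancel_left _ _⟩
    have := (Finset.card_le_card this).trans (Finset.card_union_le _ _)
    rw [Finset.card_image_of_injective _ (mul_right_injective a₀), hFfcard, hF16', Finset.card_univ,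
      ← Nat.card_eq_fintype_card, h.card] at this
    omega
  have hab1 : a₀ * b ∉ F := fun e => hb2 (by
    have e' : a₀⁻¹ * b = (a₀ * a₀)⁻¹ * (a₀ * b) := by simp [mul_assoc]
    rw [e']
    exact mul_mem (inv_mem (hWF (h.sq a₀))) e)
  have hab2 : a₀⁻¹ * (a₀ * b) ∉ F := by rwa [inv_mul_cancel_left]
  have hall : Ff ∪ Ff.image (a₀ * ·) ⊆ S2 := by
    refine Finset.union_subset hFfS2 fun a ha => ?_
    simp only [hS2, hFf, Finset.mem_image, Finset.mem_filter, Finset.mem_univ, true_and] at ha ⊢
    obtain ⟨f, hf, rfl⟩ := ha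
    rw [sqmul]
    refine mul_mem (mul_mem ha₀S (hFZ f hf)) ?_
    have h1 := hK b hb1 hb2 f hf
    have h2 := hK _ hab1 hab2 f hf
    rw [comm_mul_left hc] at h2
    exact (Subgroup.mul_mem_cancel_right Z h1).1 h2
  have := Finset.card_le_card hall
  rw [Finset.card_union_of_disjoint, Finset.card_image_of_injective _ (mul_right_injective a₀),
    hFfcard, hF16', hS2card] at this
  · omega
  · rw [Finset.disjoint_left]
    intro a ha ha'
    simp only [hFf, Finset.mem_image, Finset.mem_filter, Finset.mem_univ, true_and] at ha ha'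
    obtain ⟨f, hf, rfl⟩ := ha'
    exact ha₀F ((Subgroup.mul_mem_cancel_right F hf).1 ha)

end CfsgLib.TwoRankTwo23
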